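import Cfsg.Agent.H624.HT.RowOf
import Cfsg.Agent.Blocks.PrincipalSection

/-!
# S4933, box P9: the top level (helper624)

* `height_eq` : heights in the principal block are the `vd`;
* `Good.of_equiv`, `CD.of_equiv` : transport along isomorphisms;
* `top` : from all groups in `Type` to the statement in `Type u`.
-/

set_option autoImplicit false

open Cfsg Subgroup

namespace Cfsg.Agent.H624.HT

open Cfsg.Agent.H316.HT Cfsg.Agent.Characters.Core

universe u v

variable {G : Type u} [Group G] {p : ℕ} {M : Ideal AlgInt}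

/-- heights in the principal block -/
theorem height_eq (hM : IsPModular p M) (χ : G → ℂ) : blockHeight p (principalBlock M G) χ = vd p χ := by
  have hMp : M.IsPrime := hM.2.1.isPrime
  have h1 : sInf ((fun ψ : IrrCharacter G => (charDegree (ψ : G → ℂ)).factorization p) '' principalBlock M G) = 0 := by
    apply Nat.sInf_eq_zero.2
    left
    refine ⟨⟨fun _ => 1, Cfsg.Agent.Blocks.Basic.isIrrCharacter_one⟩,
      Cfsg.Agent.Blocks.PrincipalSection.one_mem_principalBlock, ?_⟩
    have h4 : charDegree (fun _ : G => (1 : ℂ)) = 1 := by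
      simp [charDegree]
    change (charDegree (fun _ : G => (1 : ℂ))).factorization p = 0
    rw [h4]
    simp
  rw [blockHeight, h1, Nat.sub_zero, vd]

theorem Good.of_equiv {a : ℕ} {H : Type v} [Group H] (e : G ≃* H) (h : Good p a M G) : Good p a M H := by
  obtain ⟨χ, hχ, h0, ha⟩ := h
  refine ⟨H649.irrMap e χ, ?_, ?_, ?_⟩
  · rw [← H649.blkMap_principalBlock e]
    exact H649.irrMap_mem_blkMap.2 hχ
  · rwa [vd, H649.charDegree_irrMap]
  · rwa [vd, H649.charDegree_irrMap]

/-- **P9** -/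
theorem top [hp : Fact p.Prime]
    (H : ∀ (G : Type) [Group G] [Finite G] (M : Ideal AlgInt), IsPModular p M → ∀ (P : Sylow p G) (a : ℕ), 0 < a →
      CD p a (P : Subgroup G) → Good p a M G)
    {G : Type u} [Group G] [Finite G] (M : Ideal AlgInt) (hM : IsPModular p M) (P : Sylow p G) (a : ℕ) (ha : 0 < a)
    (hcd : ∀ φ : IrrCharacter ↥P, charDegree (φ : ↥P → ℂ) = 1 ∨ charDegree (φ : ↥P → ℂ) = p ^ a)
    (hex : ∃ φ : IrrCharacter ↥P, charDegree (φ : ↥P → ℂ) = p ^ a) :
    ∃ χ : IrrCharacter G, χ ∈ principalBlock M G ∧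
      0 < blockHeight p (principalBlock M G) (χ : G → ℂ) ∧ blockHeight p (principalBlock M G) (χ : G → ℂ) ≤ a := by
  obtain ⟨G', _, _, ⟨e⟩⟩ := Finite.exists_type_univ_nonempty_mulEquiv.{u, 0} G
  let Q : Sylow p G' := P.mapSurjective (f := e.toMonoidHom) e.surjective
  let e1 : (P : Subgroup G) ≃* (Q : Subgroup G') := e.subgroupMap _
  have h1 : CD p a (Q : Subgroup G') := CD.of_equiv e1 ⟨hcd, hex⟩
  obtain ⟨χ, hχ, h0, h2⟩ := Good.of_equiv e.symm (H G' M hM Q a ha h1)
  exact ⟨χ, hχ, by rwa [height_eq hM], by rwa [height_eq hM]⟩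

end Cfsg.Agent.H624.HT
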